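import Cfsg.Agent.LThreeMB.Quo
import Cfsg.Agent.BpRankZero.MSix
import Cfsg.Agent.Lib.GenFitting

/-!
# The automorphisms induced on `⟨x⟩` and on the layer of `C(x)`, `x` of order 7 (helper820)

`relIndex_six` : `|N(⟨x⟩) : C(⟨x⟩)| = 6` if `x` is conjugate to `x ^ 3`; `layer_mem` : an element inverting `x` preserves
the layer of `C(x)`; `not_inner` : an element inverting `x` does not induce an inner automorphism of the layer.
-/

set_option autoImplicit false

namespace Cfsg.Agent.H820.Autom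

open Cfsg
open Cfsg.Agent.LThreeMB (XX Zx self mk mk_eq_mk mk_eq_one mk_mul exists_mk)
open Cfsg.Agent.BpRankZero.Exact (conj_mem inv_inverts card_dvd)
open Subgroup (centralizer mem_centralizer_singleton_iff zpowers normalizer)

variable {G : Type*} [Group G]

/-- **The index of the centralizer in the normalizer.** -/
theorem relIndex_six {x c : G} (hx : orderOf x = 7) (hc : c * x * c⁻¹ = x ^ 3) :
    (centralizer ((zpowers x : Subgroup G) : Set G)).relIndex (normalizer ((zpowers x : Subgroup G) : Set G)) = 6 := by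
  have hx7 : x ^ 7 = 1 := by rw [← hx, pow_orderOf_eq_one]
  have hfin : Finite ↥(zpowers x) := by
    apply Nat.finite_of_card_ne_zero
    rw [Nat.card_zpowers, hx]
    norm_num
  have hcard : Nat.card (MulAut ↥(zpowers x)) = 6 := by
    rw [IsCyclic.card_mulAut, Nat.card_zpowers, hx]
    exact Nat.totient_prime (by norm_num)
  have hc' : ∀ i : ℤ, c * x ^ i * c⁻¹ = x ^ (3 * i) := by
    intro i
    rw [← conj_zpow, hc, ← zpow_natCast, ← zpow_mul]
    norm_num
  have hcn : c ∈ normalizer ((zpowers x : Subgroup G) : Set G) := by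
    rw [Subgroup.mem_normalizer_iff]
    intro h
    constructor
    · rintro ⟨i, rfl⟩
      show c * x ^ i * c⁻¹ ∈ zpowers x
      rw [hc']
      exact Subgroup.zpow_mem_zpowers x _
    · intro hm
      obtain ⟨j, hj⟩ := Subgroup.mem_zpowers_iff.1 hm
      have h1 : h = x ^ (5 * j) := by
        have h2 : c * x ^ (5 * j) * c⁻¹ = c * h * c⁻¹ := by
          rw [hc', ← hj]
          have h3 : x ^ (3 * (5 * j)) = x ^ (7 * (2 * j)) * x ^ j := by rw [← zpow_add]; congr 1; ring
          rw [h3, zpow_mul, show x ^ (7 : ℤ) = x ^ 7 from by norm_cast, hx7, one_zpow, one_mul]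
        have h4 := mul_right_cancel h2
        exact (mul_left_cancel h4).symm
      rw [h1]
      exact Subgroup.zpow_mem_zpowers x _
  rw [Subgroup.relIndex, ← Subgroup.normalizerMonoidHom_ker, Subgroup.index_ker]
  set φ := (zpowers x).normalizerMonoidHom with hφ
  have hval : ∀ (n : ↥(normalizer ((zpowers x : Subgroup G) : Set G))) (b : ↥(zpowers x)),
      ((φ n b : ↥(zpowers x)) : G) = n * b * (n : G)⁻¹ := fun n b => rfl
  let X : ↥(zpowers x) := ⟨x, Subgroup.mem_zpowers x⟩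
  let α := φ ⟨c, hcn⟩
  have hpow : ∀ k : ℕ, (((α ^ k) X : ↥(zpowers x)) : G) = x ^ (3 ^ k) := by
    intro k
    induction k with
    | zero => simp [X]
    | succ k ih =>
      rw [pow_succ', MulAut.mul_apply, hval, ih]
      show c * x ^ 3 ^ k * c⁻¹ = x ^ 3 ^ (k + 1)
      rw [← conj_pow, hc, ← pow_mul, pow_succ']
  have hne : ∀ k : ℕ, ¬ 3 ^ k ≡ 1 [MOD 7] → α ^ k ≠ 1 := by
    intro k hk h1
    have h2 := hpow k
    rw [h1] at h2
    have h3 : x ^ 1 = x ^ (3 ^ k) := by rw [pow_one]; exact h2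
    rw [pow_eq_pow_iff_modEq, hx] at h3
    exact hk h3.symm
  have hα6 : α ^ 6 = 1 := by rw [← hcard]; exact pow_card_eq_one'
  have hα : orderOf α = 6 := by
    have h1 : orderOf α ∣ 6 := orderOf_dvd_of_pow_eq_one hα6
    have h2 : ¬ orderOf α ∣ 2 := fun h => hne 2 (by decide) (orderOf_dvd_iff_pow_eq_one.1 h)
    have h3 : ¬ orderOf α ∣ 3 := fun h => hne 3 (by decide) (orderOf_dvd_iff_pow_eq_one.1 h)
    have h4 : orderOf α ≤ 6 := Nat.le_of_dvd (by norm_num) h1
    generalize orderOf α = m at h1 h2 h3 h4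
    interval_cases m <;> simp_all
  apply le_antisymm
  · rw [← hcard]
    have : Finite (MulAut ↥(zpowers x)) := Nat.finite_of_card_ne_zero (by rw [hcard]; norm_num)
    exact Nat.le_of_dvd Nat.card_pos (Subgroup.card_subgroup_dvd_card _)
  · rw [← hα]
    have : Finite (MulAut ↥(zpowers x)) := Nat.finite_of_card_ne_zero (by rw [hcard]; norm_num)
    have h1 : orderOf (⟨α, ⟨_, rfl⟩⟩ : ↥φ.range) = orderOf α := by rw [← Subgroup.orderOf_coe]
    rw [← h1]
    exact Nat.le_of_dvd Nat.card_pos (orderOf_dvd_natCard _)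

/-- conjugation on the centralizer -/
def conjE {x t : G} (h : t * x * t⁻¹ = x⁻¹) : ↥(centralizer ({x} : Set G)) ≃* ↥(centralizer ({x} : Set G)) where
  toFun c := ⟨t * c * t⁻¹, mem_centralizer_singleton_iff.2 (conj_mem h (mem_centralizer_singleton_iff.1 c.2))⟩
  invFun c := ⟨t⁻¹ * c * t⁻¹⁻¹,
    mem_centralizer_singleton_iff.2 (conj_mem (inv_inverts h) (mem_centralizer_singleton_iff.1 c.2))⟩
  left_inv c := Subtype.ext (by
    show t⁻¹ * (t * (c : G) * t⁻¹) * t⁻¹⁻¹ = c
    group)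
  right_inv c := Subtype.ext (by
    show t * (t⁻¹ * (c : G) * t⁻¹⁻¹) * t⁻¹ = c
    group)
  map_mul' a b := Subtype.ext (by
    show t * ((a : G) * b) * t⁻¹ = t * (a : G) * t⁻¹ * (t * (b : G) * t⁻¹)
    group)

/-- **The layer is preserved.** -/
theorem layer_mem {x t : G} (h : t * x * t⁻¹ = x⁻¹) {y : G}
    (hy : y ∈ (layer ↥(centralizer ({x} : Set G))).map (centralizer ({x} : Set G)).subtype) :
    t * y * t⁻¹ ∈ (layer ↥(centralizer ({x} : Set G))).map (centralizer ({x} : Set G)).subtype := by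
  obtain ⟨c, hc, rfl⟩ := hy
  refine ⟨conjE h c, ?_, rfl⟩
  have h1 := Cfsg.Agent.Lib.GenFitting.map_layer (conjE h)
  rw [SetLike.mem_coe, ← h1]
  exact ⟨c, hc, rfl⟩

/-- **The layer covers `C(x) / ⟨x⟩`.** -/
theorem map_layer_eq_top [Finite G] {x : G} (hs : IsSimpleGroup (XX x)) (hn : ∃ a b : XX x, a * b ≠ b * a) :
    (layer ↥(centralizer ({x} : Set G))).map (QuotientGroup.mk' (Zx x)) = ⊤ := by
  have hL : (layer ↥(centralizer ({x} : Set G))).Normal :=
    Cfsg.Agent.SignalizersComponents.Components.layer_normal _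
  have hF : (fittingSubgroup ↥(centralizer ({x} : Set G))).Normal := Cfsg.Agent.Lib.Cores.fittingSubgroup_normal
  have hFn := Cfsg.Agent.Lib.Cores.fittingSubgroup_isNilpotent (G := ↥(centralizer ({x} : Set G)))
  have hLm : ((layer ↥(centralizer ({x} : Set G))).map (QuotientGroup.mk' (Zx x))).Normal :=
    hL.map _ (QuotientGroup.mk'_surjective _)
  have hFm : ((fittingSubgroup ↥(centralizer ({x} : Set G))).map (QuotientGroup.mk' (Zx x))).Normal :=
    hF.map _ (QuotientGroup.mk'_surjective _)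
  rcases hLm.eq_bot_or_eq_top with h1 | h1
  swap
  · exact h1
  exfalso
  have h2 : (fittingSubgroup ↥(centralizer ({x} : Set G))).map (QuotientGroup.mk' (Zx x)) = ⊥ := by
    rcases hFm.eq_bot_or_eq_top with h3 | h3
    · exact h3
    · exfalso
      have h4 : Group.IsNilpotent ↥((fittingSubgroup ↥(centralizer ({x} : Set G))).map (QuotientGroup.mk' (Zx x))) :=
        Group.nilpotent_of_surjective ((QuotientGroup.mk' (Zx x)).subgroupMap _)
          ((QuotientGroup.mk' (Zx x)).subgroupMap_surjective _)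
      rw [h3] at h4
      have h5 : Group.IsNilpotent (XX x) := Group.nilpotent_of_mulEquiv Subgroup.topEquiv
      have h6 : Group.IsSolvable (XX x) := inferInstance
      obtain ⟨a, b, hab⟩ := hn
      exact hab (IsSimpleGroup.comm_iff_isSolvable.2 h6 a b)
  have h3 : generalizedFittingSubgroup ↥(centralizer ({x} : Set G)) ≤ Zx x := by
    rw [Cfsg.Agent.Lib.GenFitting.genFitting_def, sup_le_iff]
    rw [Subgroup.map_eq_bot_iff, QuotientGroup.ker_mk'] at h1 h2
    exact ⟨h1, h2⟩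
  have h4 := Cfsg.Agent.Lib.GenFitting.centralizer_genFitting_le (G := ↥(centralizer ({x} : Set G)))
  have h5 : (⊤ : Subgroup ↥(centralizer ({x} : Set G))) ≤ Zx x := by
    refine le_trans ?_ (h4.trans h3)
    intro c _
    rw [Subgroup.mem_centralizer_iff]
    intro y hy
    have h6 := h3 hy
    obtain ⟨i, hi⟩ := Subgroup.mem_zpowers_iff.1 h6
    have h7 : Commute (self x) c := Subtype.ext (mem_centralizer_singleton_iff.1 c.2).symm
    rw [← hi]
    exact h7.zpow_left i
  obtain ⟨a, b, hab⟩ := hn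
  have h6 : ∀ u : XX x, u = 1 := by
    intro u
    obtain ⟨g, rfl⟩ := QuotientGroup.mk_surjective u
    exact (QuotientGroup.eq_one_iff g).2 (h5 (Subgroup.mem_top g))
  exact hab (by rw [h6 a, h6 b])

/-- **The automorphism is not inner.** -/
theorem not_inner [Finite G] {x t l : G} (hx : orderOf x = 7) (hs : IsSimpleGroup (XX x))
    (hn : ∃ a b : XX x, a * b ≠ b * a) (h343 : 7 ^ 3 ∣ Nat.card (XX x))
    (hno : ∀ τ : G, τ * τ = 1 → τ ≠ 1 → ¬ 7 ^ 3 ∣ Nat.card ↥(centralizer ({τ} : Set G)))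
    (ht : t * x * t⁻¹ = x⁻¹)
    (hl : l ∈ (layer ↥(centralizer ({x} : Set G))).map (centralizer ({x} : Set G)).subtype)
    (h : ∀ y ∈ (layer ↥(centralizer ({x} : Set G))).map (centralizer ({x} : Set G)).subtype,
      t * y * t⁻¹ = l * y * l⁻¹) : False := by
  have hx7 : x ^ 7 = 1 := by rw [← hx, pow_orderOf_eq_one]
  have hx1 : x ≠ 1 := by
    rintro rfl
    rw [orderOf_one] at hx
    norm_num at hx
  have htop := map_layer_eq_top hs hn
  have hlx : l * x = x * l := by
    obtain ⟨c, -, rfl⟩ := hl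
    exact mem_centralizer_singleton_iff.1 c.2
  set τ := l⁻¹ * t with hτ
  have hτx : τ * x * τ⁻¹ = x⁻¹ := by
    have h1 : l⁻¹ * x⁻¹ * l = x⁻¹ := by
      rw [((show Commute l x from hlx).inv_left.inv_right).eq, inv_mul_cancel_right]
    calc τ * x * τ⁻¹ = l⁻¹ * (t * x * t⁻¹) * l := by rw [hτ]; group
      _ = x⁻¹ := by rw [ht, h1]
  have hτy : ∀ y ∈ (layer ↥(centralizer ({x} : Set G))).map (centralizer ({x} : Set G)).subtype, τ * y * τ⁻¹ = y := by
    intro y hy
    calc τ * y * τ⁻¹ = l⁻¹ * (t * y * t⁻¹) * l := by rw [hτ]; group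
      _ = y := by rw [h y hy]; group
  -- every element of `C(x)` is a product
  have hdec : ∀ a : G, a * x = x * a → ∃ y ∈ (layer ↥(centralizer ({x} : Set G))).map
      (centralizer ({x} : Set G)).subtype, ∃ i : ℤ, y * x ^ i = a := by
    intro a ha
    have h1 : mk x ha ∈ (layer ↥(centralizer ({x} : Set G))).map (QuotientGroup.mk' (Zx x)) := by
      rw [htop]; exact Subgroup.mem_top _
    obtain ⟨c, hc, hca⟩ := h1
    have h2 : mk x (mem_centralizer_singleton_iff.1 c.2) = mk x ha := hca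
    obtain ⟨i, hi⟩ := (mk_eq_mk _ _).1 h2
    exact ⟨c, ⟨c, hc, rfl⟩, i, hi⟩
  have hzp : ∀ i : ℤ, τ * x ^ i * τ⁻¹ = x ^ (-i) := by
    intro i
    rw [← conj_zpow, hτx, inv_zpow, zpow_neg]
  have hact : ∀ (a : G) (ha : a * x = x * a), mk x ha ∈ (⊤ : Subgroup (XX x)) →
      ∃ i : ℤ, τ * a * τ⁻¹ = a * x ^ i := by
    intro a ha _
    obtain ⟨y, hy, i, rfl⟩ := hdec a ha
    refine ⟨-i + -i, ?_⟩
    calc τ * (y * x ^ i) * τ⁻¹ = (τ * y * τ⁻¹) * (τ * x ^ i * τ⁻¹) := by group
      _ = y * x ^ (-i) := by rw [hτy y hy, hzp]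
      _ = y * x ^ i * x ^ (-i + -i) := by rw [mul_assoc, ← zpow_add]; congr 2; ring
  -- `τ ^ 2` centralizes `C(x) / ⟨x⟩`
  have h2x : (τ * τ) * x = x * (τ * τ) := by
    have h1 : τ * x = x⁻¹ * τ := by rw [← hτx]; group
    have h2 : τ * x⁻¹ = x * τ := by
      have h3 := hzp (-1)
      rw [neg_neg, zpow_one, zpow_neg_one] at h3
      calc τ * x⁻¹ = (τ * x⁻¹ * τ⁻¹) * τ := by group
        _ = x * τ := by rw [h3]
    rw [mul_assoc, h1, ← mul_assoc, h2, mul_assoc]
  have hcen : mk x h2x ∈ Subgroup.center (XX x) := by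
    rw [Subgroup.mem_center_iff]
    intro u
    obtain ⟨a, ha, rfl⟩ := exists_mk u
    obtain ⟨y, hy, i, hi⟩ := hdec a ha
    have h1 : (τ * τ) * y = y * (τ * τ) := by
      have h3 : τ * y = y * τ := by
        calc τ * y = (τ * y * τ⁻¹) * τ := by group
          _ = y * τ := by rw [hτy y hy]
      rw [mul_assoc, h3, ← mul_assoc, h3, mul_assoc]
    have h2 : (τ * τ) * x ^ i = x ^ i * (τ * τ) := (show Commute (τ * τ) x from h2x).zpow_right i
    have h3 : a * (τ * τ) = (τ * τ) * a := by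
      rw [← hi, mul_assoc, ← h2, ← mul_assoc, ← h1, mul_assoc]
    have h4 : (a * (τ * τ)) * x = x * (a * (τ * τ)) := by rw [mul_assoc, h2x, ← mul_assoc, ha, mul_assoc]
    have h5 : ((τ * τ) * a) * x = x * ((τ * τ) * a) := by rw [← h3]; exact h4
    rw [mk_mul ha h2x h4, mk_mul h2x ha h5]
    exact Cfsg.Agent.LThreeMB.mk_congr _ _ h3
  have hcb : Subgroup.center (XX x) = ⊥ := by
    rcases (inferInstance : (Subgroup.center (XX x)).Normal).eq_bot_or_eq_top with h1 | h1
    · exact h1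
    · exfalso
      obtain ⟨a, b, hab⟩ := hn
      have h2 : b ∈ Subgroup.center (XX x) := by rw [h1]; exact Subgroup.mem_top b
      exact hab (Subgroup.mem_center_iff.1 h2 a)
  rw [hcb, Subgroup.mem_bot, mk_eq_one] at hcen
  obtain ⟨i, hi⟩ := hcen
  have hττ : τ * τ = 1 := by
    have h1 := hzp i
    rw [hi] at h1
    have h2 : τ * τ = x ^ (-i) := by
      rw [← h1]; group
    have h3 : (τ * τ) ^ 2 = 1 := by
      rw [pow_two]
      nth_rewrite 1 [h2]
      rw [← hi, ← zpow_add, neg_add_cancel, zpow_zero]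
    have h4 : (τ * τ) ^ 7 = 1 := by
      rw [← hi, ← zpow_natCast, ← zpow_mul, mul_comm, zpow_mul, zpow_natCast, hx7, one_zpow]
    have h5 : (τ * τ) ^ Nat.gcd 2 7 = 1 := pow_gcd_eq_one.2 ⟨h3, h4⟩
    rwa [show Nat.gcd 2 7 = 1 from by norm_num, pow_one] at h5
  have hτ1 : τ ≠ 1 := by
    intro h1
    rw [h1, one_mul, inv_one, mul_one] at hτx
    have h3 : x ^ 2 = 1 := by
      rw [pow_two]
      nth_rewrite 2 [hτx]
      exact mul_inv_cancel x
    have h4 : x ^ Nat.gcd 2 7 = 1 := pow_gcd_eq_one.2 ⟨h3, hx7⟩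
    rw [show Nat.gcd 2 7 = 1 from by norm_num, pow_one] at h4
    exact hx1 h4
  apply hno τ hττ hτ1
  refine h343.trans ?_
  have h1 := card_dvd (Y := (⊤ : Subgroup (XX x))) (by decide : Odd 7) hx7 hτx hact
  rwa [Subgroup.card_top] at h1

end Cfsg.Agent.H820.Autom
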